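import Cfsg.Agent.H406.Cov.Reg
import Cfsg.Agent.H185.TypedTw
import Cfsg.Agent.FixBN.SplitRGD

/-!
# Torus elements normalizing a Sylow subgroup (helper406, for S2499)

* `ND p S Q` : an element `t` normalizes a Sylow `p`-subgroup `P` of `S` and `t ^ k ∈ P` only if `Q - 1 ∣ c k`, `c ≤ 3`;
* `nd_of_fieldNode` : a split (B, N)-pair with a node over a field of order `Q`;
* `RegD.dvd_of_nd` : if `S` contains a regular unipotent element of a group over `F_q`, `q = p ^ f`, and `ND p S (p ^ a)`,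
  `p ≥ 5`, then `a ∣ f`.
-/

set_option autoImplicit false

namespace Cfsg.Agent.H406.Cov

open Cfsg

/-- a torus element of order divisible by `(Q - 1) / c` normalizing a Sylow subgroup -/
def ND (p : ℕ) (S : Type*) [Group S] (Q : ℕ) : Prop :=
  ∃ (P : Sylow p S) (t : S) (c : ℕ), t ∈ Subgroup.normalizer (P : Set S) ∧ 0 < c ∧ c ≤ 3 ∧
    ∀ k, t ^ k ∈ P → Q - 1 ∣ c * k

theorem ND.of_equiv {p : ℕ} [Fact p.Prime] {S S' : Type*} [Group S] [Finite S] [Group S'] {Q : ℕ} (h : ND p S Q)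
    (e : S ≃* S') : ND p S' Q := by
  obtain ⟨P, t, c, ht, hc, hc3, hk⟩ := h
  have hes : Function.Surjective e.toMonoidHom := e.surjective
  refine ⟨P.mapSurjective hes, e t, c, ?_, hc, hc3, fun k h => hk k ?_⟩
  · refine Subgroup.mem_normalizer_iff.2 fun y => ?_
    have key : ∀ z : S', z ∈ (P.mapSurjective hes : Subgroup S') ↔ e.symm z ∈ P := by
      intro z
      rw [Sylow.coe_mapSurjective]
      constructor
      · rintro ⟨x, hx, rfl⟩
        simpa using hx
      · intro hz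
        exact ⟨e.symm z, hz, by simp⟩
    rw [key, key, map_mul, map_mul, map_inv, MulEquiv.symm_apply_apply]
    exact Subgroup.mem_normalizer_iff.1 ht _
  · have h1 : e t ^ k ∈ (P.mapSurjective hes : Subgroup S') := h
    rw [Sylow.coe_mapSurjective, ← map_pow] at h1
    obtain ⟨x, hx, hxe⟩ := h1
    have : x = t ^ k := e.injective hxe
    rw [← this]
    exact hx

theorem dvd_of_pow {p a f c : ℕ} (hp : 5 ≤ p) (ha : 1 ≤ a) (hc : 0 < c) (hc3 : c ≤ 3)
    (h : p ^ a - 1 ∣ c * (p ^ f - 1)) : a ∣ f := by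
  have h1 : p ^ a - 1 ∣ c * (p ^ Nat.gcd a f - 1) := by
    rw [← Nat.pow_sub_one_gcd_pow_sub_one, ← Nat.gcd_mul_left]
    exact Nat.dvd_gcd (Dvd.intro_left _ rfl) h
  have hg : 1 ≤ Nat.gcd a f := Nat.gcd_pos_of_pos_left _ ha
  have hga : Nat.gcd a f ∣ a := Nat.gcd_dvd_left _ _
  have hgle := Nat.le_of_dvd ha hga
  rcases hgle.eq_or_lt with he | hlt
  · rw [← he]; exact Nat.gcd_dvd_right _ _
  · exfalso
    have h5 : p ^ Nat.gcd a f * 5 ≤ p ^ a := by
      calc p ^ Nat.gcd a f * 5 ≤ p ^ Nat.gcd a f * p := Nat.mul_le_mul_left _ hp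
        _ = p ^ (Nat.gcd a f + 1) := (pow_succ _ _).symm
        _ ≤ p ^ a := Nat.pow_le_pow_right (by omega) hlt
    have h6 : p ^ 1 ≤ p ^ Nat.gcd a f := Nat.pow_le_pow_right (by omega) hg
    rw [pow_one] at h6
    have h7 := Nat.le_of_dvd (Nat.mul_pos hc (by omega)) h1
    have h8 : c * (p ^ Nat.gcd a f - 1) ≤ 3 * (p ^ Nat.gcd a f - 1) := Nat.mul_le_mul_right _ hc3
    omega

/-- **The field of a node.** -/
theorem RegD.dvd_of_nd {p : ℕ} [Fact p.Prime] {G : Type*} [Group G] {U B : Subgroup G} {u : G} {f : ℕ}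
    (R : RegD p U B u (p ^ f - 1)) (h5 : 5 ≤ p) {K : Type*} [Group K] [Finite K] {φ : K →* G}
    (hφ : Function.Injective φ) {w : K} {g : G} (hw : φ w = g * u * g⁻¹) {a : ℕ} (ha : 1 ≤ a) (hN : ND p K (p ^ a)) :
    a ∣ f := by
  obtain ⟨P, t, c, ht, hc, hc3, hk⟩ := hN
  exact dvd_of_pow h5 ha hc hc3 (hk _ (R.pow_mem hφ hw P ht))

/-! ### Nodes over a field -/

section Field

open Cfsg.Agent.Schreier.BNSch Cfsg.Agent.FixBN

variable {K : Type*} [Group K] {P : Cfsg.BNPair K} {U V : Subgroup K} {s : K} {F : Type*} [Field F]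

/-- `g ∈ y B` -/
def Co (P : Cfsg.BNPair K) (y g : K) : Prop := y⁻¹ * g ∈ P.B

theorem Co.refl (y : K) : Co P y y := by unfold Co; rw [inv_mul_cancel]; exact one_mem _

theorem Co.symm {y g : K} (h : Co P y g) : Co P g y := by
  unfold Co at *
  have := inv_mem h
  rwa [mul_inv_rev, inv_inv] at this

theorem Co.trans {z y g : K} (h : Co P z y) (h' : Co P y g) : Co P z g := by
  unfold Co at *
  have := mul_mem h h'
  rwa [mul_assoc, mul_inv_cancel_left] at this

theorem Co.mul {y g : K} (h : Co P y g) (k : K) : Co P (k * y) (k * g) := by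
  unfold Co at *
  rwa [mul_inv_rev, mul_assoc, inv_mul_cancel_left]

theorem Co.of_mem {b : K} (h : b ∈ P.B) (y : K) : Co P y (y * b) := by
  unfold Co
  rwa [inv_mul_cancel_left]

variable (N : FieldNode P U s V F)

theorem s_X {c : F} (hc : c ≠ 0) : Co P (N.x (-c⁻¹) * s) (s * (N.x c * s)) := by
  have := N.inv c hc
  unfold Co
  rwa [mul_assoc s] at this

/-- the action of `x(a) s⁻¹ x(a⁻¹) s x(a) s` -/
theorem tor_X (hs : s ∈ P.S) (hU : U ≤ P.B) {a : F} (ha : a ≠ 0) (c : F) :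
    Co P (N.x (a * a * c) * s) ((N.x a * ((N.x (-a⁻¹) * s)⁻¹ * (s * N.x a * s))) * (N.x c * s)) := by
  have hss := P.sq_mem s hs
  have hxB : ∀ e, N.x e ∈ P.B := fun e => hU (N.mem e)
  have hmul : ∀ e d, N.x e * (N.x d * s) = N.x (e + d) * s := fun e d => by rw [N.add, mul_assoc]
  -- `s X 0`
  have h0 : Co P 1 (s * (N.x 0 * s)) := by
    unfold Co
    rw [N.x_zero, one_mul, inv_one, one_mul]
    exact hss
  have h0' : Co P (N.x 0 * s) s⁻¹ := by
    unfold Co
    rw [N.x_zero, one_mul, ← mul_inv_rev]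
    exact inv_mem hss
  -- `s⁻¹ X d`
  have hinv : ∀ d : F, d ≠ 0 → Co P (N.x (-d⁻¹) * s) (s⁻¹ * (N.x d * s)) := by
    intro d hd
    have h1 := (s_X N (c := -d⁻¹) (neg_ne_zero.2 (inv_ne_zero hd))).mul s⁻¹
    rw [inv_mul_cancel_left] at h1
    have h2 : -(-d⁻¹)⁻¹ = d := by rw [inv_neg, inv_inv, neg_neg]
    rw [h2] at h1
    exact h1.symm
  -- the element
  have hexp : (N.x a * ((N.x (-a⁻¹) * s)⁻¹ * (s * N.x a * s))) * (N.x c * s) =
      N.x a * (s⁻¹ * (N.x a⁻¹ * (s * (N.x a * (s * (N.x c * s)))))) := by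
    rw [mul_inv_rev, ← N.x_neg, neg_neg]
    simp only [mul_assoc]
  rw [hexp]
  -- it suffices to know the image of the last factor
  have hfin : ∀ g : K, Co P (N.x (a * a * c - a) * s) g → Co P (N.x (a * a * c) * s) (N.x a * g) := by
    intro g hg
    have h1 := hg.mul (N.x a)
    rw [hmul] at h1
    have h2 : a + (a * a * c - a) = a * a * c := by ring
    rwa [h2] at h1
  apply hfin
  by_cases hc0 : c = 0
  · subst hc0
    have e1 : Co P (N.x a) (N.x a * (s * (N.x 0 * s))) := by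
      have := h0.mul (N.x a)
      rwa [mul_one] at this
    have e2 : Co P 1 (N.x a * (s * (N.x 0 * s))) := by
      refine Co.trans ?_ e1
      have := Co.of_mem (P := P) (hxB a) 1
      rwa [one_mul] at this
    have e3 := (e2.mul s).mul (N.x a⁻¹)
    rw [mul_one] at e3
    have e4 := e3.mul s⁻¹
    have e5 := (hinv a⁻¹ (inv_ne_zero ha)).trans e4
    have e6 : a * a * 0 - a = -(a⁻¹)⁻¹ := by rw [inv_inv]; ring
    rw [e6]
    exact e5
  by_cases hca : a - c⁻¹ = 0
  · have hc1 : c⁻¹ = a := (sub_eq_zero.1 hca).symm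
    have e1 := (s_X N hc0).mul (N.x a)
    rw [hmul] at e1
    have e2 : a + -c⁻¹ = 0 := by rw [hc1]; ring
    rw [e2] at e1
    have e3 := h0.trans (e1.mul s)
    have e4 := e3.mul (N.x a⁻¹)
    rw [mul_one] at e4
    have e5 : Co P 1 (N.x a⁻¹) := by
      have := Co.of_mem (P := P) (hxB a⁻¹) 1
      rwa [one_mul] at this
    have e6 := (e5.trans e4).mul s⁻¹
    rw [mul_one] at e6
    have e7 : a * a * c - a = 0 := by
      rw [← hc1]
      field_simp
      ring
    rw [e7]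
    exact h0'.trans e6
  · have e1 := (s_X N hc0).mul (N.x a)
    rw [hmul] at e1
    have e2 : a + -c⁻¹ = a - c⁻¹ := by ring
    rw [e2] at e1
    have e3 := ((s_X N hca).trans (e1.mul s)).mul (N.x a⁻¹)
    rw [hmul] at e3
    have hac : a * c - 1 ≠ 0 := by
      intro h
      apply hca
      have : a * c = 1 := by linear_combination h
      field_simp
      linear_combination this
    have hd : a⁻¹ + -(a - c⁻¹)⁻¹ = -(a * (a * c - 1))⁻¹ := by
      have h5 : a - c⁻¹ = (a * c - 1) / c := by field_simp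
      rw [h5]
      field_simp
      ring
    rw [hd] at e3
    have hne : -(a * (a * c - 1))⁻¹ ≠ 0 := neg_ne_zero.2 (inv_ne_zero (mul_ne_zero ha hac))
    have e4 := (hinv _ hne).trans (e3.mul s⁻¹)
    have e5 : -(-(a * (a * c - 1))⁻¹)⁻¹ = a * a * c - a := by
      rw [inv_neg, inv_inv, neg_neg]
      ring
    rw [e5] at e4
    exact e4

/-- the element of the torus (modulo `U`) -/
theorem exists_tor (hs : s ∈ P.S) (hU : U ≤ P.B) {a : F} (ha : a ≠ 0) :
    ∃ t ∈ P.B, ∀ (k : ℕ) (c : F), Co P (N.x (a ^ (2 * k) * c) * s) (t ^ k * (N.x c * s)) := by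
  refine ⟨_, mul_mem (hU (N.mem a)) (N.inv a ha), fun k => ?_⟩
  induction k with
  | zero =>
    intro c
    rw [mul_zero, pow_zero, pow_zero, one_mul, one_mul]
    exact Co.refl _
  | succ k ih =>
    intro c
    rw [pow_succ', mul_assoc]
    have h1 := (tor_X N hs hU ha (a ^ (2 * k) * c)).trans ((ih c).mul _)
    have h2 : a * a * (a ^ (2 * k) * c) = a ^ (2 * (k + 1)) * c := by ring
    rwa [h2] at h1

theorem X_inj (Nd : Node P U s V) {c c' : F} (h : Co P (N.x c * s) (N.x c' * s)) : c = c' := by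
  unfold Co at h
  have h1 : (N.x c * s)⁻¹ * (N.x c' * s) = s⁻¹ * N.x (-c + c') * s := by
    rw [N.add, N.x_neg]; group
  rw [h1] at h
  have h2 := N.ne _ (Nd.stab _ (N.mem _) h)
  linear_combination -h2

/-- `U` acts by translations -/
theorem U_X (Nd : Node P U s V) (hU : U ≤ P.B) {u : K} (hu : u ∈ U) : ∃ e : F, ∀ c, Co P (N.x (e + c) * s) (u * (N.x c * s)) := by
  obtain ⟨e, he⟩ := N.cover u hu
  refine ⟨e, fun c => ?_⟩
  have h1 : (N.x c)⁻¹ * ((N.x e)⁻¹ * u) * N.x c ∈ V := by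
    have := Nd.conj_B (N.x c)⁻¹ (inv_mem (hU (N.mem c))) _ he
    rwa [inv_inv] at this
  have h2 := Nd.conj_s _ h1
  have h3 : u * (N.x c * s) = N.x (e + c) * s * (s⁻¹ * ((N.x c)⁻¹ * ((N.x e)⁻¹ * u) * N.x c) * s) := by
    rw [N.add]; group
  rw [h3]
  exact Co.of_mem (hU (Nd.le h2)) _

/-- `U` is a Sylow subgroup -/
theorem split_sylow [Finite K] {p : ℕ} [Fact p.Prime] (S : Split P p U) : ∃ Q : Sylow p K, (Q : Subgroup K) = U := by
  obtain ⟨Q, hQ⟩ := S.isP.exists_le_sylow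
  refine ⟨Q, ?_⟩
  by_contra hne
  have hlt : U.subgroupOf Q ≠ ⊤ := by
    intro h
    rw [Subgroup.subgroupOf_eq_top] at h
    exact hne (le_antisymm h hQ)
  have hnil : Group.IsNilpotent Q := Q.isPGroup'.isNilpotent
  have h1 := Group.normalizerCondition_of_isNilpotent (G := Q) (U.subgroupOf Q) (lt_top_iff_ne_top.2 hlt)
  obtain ⟨x, hx1, hx2⟩ := SetLike.exists_of_lt h1
  apply hx2
  rw [Subgroup.mem_subgroupOf]
  have hxB : (x : K) ∈ P.B := by
    rw [← S.normalizer_eq]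
    refine Subgroup.mem_normalizer_iff.2 fun y => ?_
    have h2 := Subgroup.mem_normalizer_iff.1 hx1
    constructor
    · intro hy
      have h3 := (h2 ⟨y, hQ hy⟩).1 hy
      exact h3
    · intro hy
      have h4 : x⁻¹ * (⟨(x : K) * y * (x : K)⁻¹, hQ hy⟩ : Q) * x ∈ U.subgroupOf Q := by
        have := (Subgroup.mem_normalizer_iff.1 (inv_mem hx1) ⟨(x : K) * y * (x : K)⁻¹, hQ hy⟩).1 hy
        rwa [inv_inv] at this
      rw [Subgroup.mem_subgroupOf] at h4
      have h5 : ((x⁻¹ * (⟨(x : K) * y * (x : K)⁻¹, hQ hy⟩ : Q) * x : Q) : K) = y := by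
        show (x : K)⁻¹ * ((x : K) * y * (x : K)⁻¹) * x = y
        group
      rwa [h5] at h4
  obtain ⟨n, hn⟩ := Q.isPGroup' x
  exact S.mem_of_pow hxB (congrArg Subtype.val hn)

include N in
/-- **A node over a field.** -/
theorem nd_of_fieldNode [Finite K] {p : ℕ} [Fact p.Prime] (S : Split P p U) (Nd : Node P U s V) (hs : s ∈ P.S)
    [Finite F] : ND p K (Nat.card F) := by
  obtain ⟨Q, hQ⟩ := split_sylow S
  obtain ⟨a, ha⟩ := IsCyclic.exists_ofOrder_eq_natCard (α := Fˣ)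
  obtain ⟨t, htB, ht⟩ := exists_tor N hs S.le a.ne_zero
  refine ⟨Q, t, 2, ?_, by norm_num, by norm_num, fun k hk => ?_⟩
  · have h1 : t ∈ Subgroup.normalizer (U : Set K) := by rw [S.normalizer_eq]; exact htB
    have h2 : ((Q : Subgroup K) : Set K) = (U : Set K) := by rw [hQ]
    have h3 : (Q : Set K) = (U : Set K) := h2
    rw [h3]
    exact h1
  · have hkU : t ^ k ∈ U := by rw [← hQ]; exact hk
    obtain ⟨e, he⟩ := U_X N Nd S.le hkU
    have h0 := X_inj N Nd ((ht k 0).trans (he 0).symm)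
    have h1 := X_inj N Nd ((ht k 1).trans (he 1).symm)
    rw [mul_zero, add_zero] at h0
    rw [mul_one, ← h0, zero_add] at h1
    have h2 : a ^ (2 * k) = 1 := Units.ext (by rw [Units.val_pow_eq_pow_val]; exact h1)
    have h3 := orderOf_dvd_of_pow_eq_one h2
    rw [ha, Nat.card_units] at h3
    exact h3

end Field

/-! ### Root group data -/

section Typed

open Cfsg.Agent.H185.TypedTw Cfsg.Agent.Nodes.BNOf Cfsg.Agent.FixBN CoxeterSystem

/-- a simple group with a root group datum all of whose nodes are over fields -/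
theorem nd_of_ftyped {p : ℕ} [hp : Fact p.Prime] {K : Type*} [Group K] [Finite K] [IsSimpleGroup K] {l : ℕ}
    {M : CoxeterMatrix (Fin l)} {Q : Fin l → ℕ} (H : HasFTyped p K M Q) (i : Fin l) : ND p K (Q i) := by
  obtain ⟨A, h, T, n, X, hW, R, hgen, -, hN⟩ := H
  have hne : (R.bnPair hgen).S.Nonempty := ⟨n i, i, rfl⟩
  have S := SplitRGD.split_of_rgd hp.out R hgen (Cfsg.Agent.Tits.OfBN.normalCore_eq_bot (R.bnPair hgen) hne)
  obtain ⟨V, Nd, F, _, _, hF, ⟨N⟩⟩ := hN i
  rw [← hF]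
  exact nd_of_fieldNode N S Nd ⟨i, rfl⟩

end Typed

end Cfsg.Agent.H406.Cov
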