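import Cfsg.Agent.H325.Same.ExcF4

/-!
# One class of tori of `F₄(p ^ f)`, `p ≥ 5`, with the field restriction from regular unipotent elements: numbers
(helper406)

* `NF g f₁ f` : what the nodes of the group `g` over `p ^ f₁` give: `f₁ ∣ f` etc.
* `elim_one` : only `F₄(q)`, and, for class 8, `PSp₈(q)`, `Ω₉(q)`, `PΩ⁺₁₀(q)`.
-/

set_option autoImplicit false

namespace Cfsg.Agent.H406.Cov

open Cfsg.Agent.OrdDiv Cfsg.Agent.H436 Cfsg.Agent.H915.GN Cfsg.Agent.H264.GN Cfsg.Agent.H264.FKS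
open Cfsg.Agent.H325.Same

variable {p f c f₁ : ℕ} {g : Grp}

/-- the restriction of the field -/
def NF (g : Grp) (f₁ f : ℕ) : Prop :=
  match g with
  | .psl _ _ => f₁ ∣ f
  | .psp _ _ => f₁ ∣ f
  | .psu m _ => (m = 3 ∨ m = 4) → 2 * f₁ ∣ f
  | .oodd _ _ => f₁ ∣ f
  | .oplus _ _ => f₁ ∣ f
  | .ominus _ _ => 2 * f₁ ∣ f
  | .g2 _ => f₁ ∣ f
  | .f4 _ => f₁ ∣ f
  | .e6 _ => f₁ ∣ f
  | .e7 _ => f₁ ∣ f
  | .e8 _ => f₁ ∣ f
  | .td4 _ => 3 * f₁ ∣ f
  | _ => True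

theorem mul_cancel {c k i M : ℕ} (hf₁ : 1 ≤ f₁) (h : f₁ * M = c * f₁ * k * i) : M = c * (k * i) := by
  have h1 : f₁ * M = f₁ * (c * (k * i)) := by rw [h]; ring
  exact Nat.eq_of_mul_eq_mul_left hf₁ h1

theorem not_two_pow (hp : p.Prime) (h5 : 5 ≤ p) (hf₁ : 1 ≤ f₁) {m : ℕ} {b : ℕ} (hb : b.Prime) (hb3 : b ≤ 3)
    (h : p ^ f₁ = b ^ m) : False := by
  have h4 : p ∣ b ^ m := by
    rw [← h]
    exact dvd_pow_self p (by omega)
  have h6 := (Nat.prime_dvd_prime_iff_eq hp hb).1 (hp.dvd_of_dvd_pow h4)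
  omega

/-- **The elimination.** -/
theorem elim_one (hp : p.Prime) (h5 : 5 ≤ p) (hg : Cond g) (hch : HasChar p g) {i : ℕ} (hi : i ∈ [2, 6, 8, 12])
    (hei : 8 ≤ i) (hf₁ : 1 ≤ f₁) (hf : 1 ≤ f) (hfl : fld g = p ^ f₁) (hfM : f₁ * Mg g = f * i) (h2 : ag g * i ≤ 24 * Mg g)
    (hY : ∀ k, (k = 4 ∨ k = 5 ∨ 7 ≤ k) → Yg g k → ∃ j, j ∈ [2, 6, 8, 12] ∧ i * k ∣ Mg g * j) (hN : NF g f₁ f) :
    g = .f4 (p ^ f) ∨ (i = 8 ∧ (g = .psp 4 (p ^ f) ∨ g = .oodd 4 (p ^ f) ∨ g = .oplus 5 (p ^ f))) := by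
  have hi2 : i = 8 ∨ i = 12 := by
    simp only [List.mem_cons, List.not_mem_nil, or_false] at hi
    omega
  have h6 : 2 * ag g ≤ 6 * Mg g := by rcases hi2 with rfl | rfl <;> omega
  have hkp : ∀ {c : ℕ}, c * f₁ ∣ f → ∃ k, 1 ≤ k ∧ f = c * f₁ * k ∧ Mg g = c * (k * i) := by
    rintro c ⟨k, rfl⟩
    exact ⟨k, Nat.one_le_iff_ne_zero.2 (by rintro rfl; simp at hf), rfl, mul_cancel hf₁ hfM⟩
  have hkp1 : f₁ ∣ f → ∃ k, 1 ≤ k ∧ f = f₁ * k ∧ Mg g = k * i := by
    intro h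
    obtain ⟨k, h1, h2, h3⟩ := hkp (c := 1) (by rwa [one_mul])
    exact ⟨k, h1, by rw [h2, one_mul], by rw [h3, one_mul]⟩
  cases g
  case psl m q =>
    exfalso
    obtain ⟨hm, -, -⟩ := hg
    have hb := bd_psl (ρ := 6) (by omega) h6
    obtain ⟨k, hk, -, hM⟩ := hkp1 hN
    have hM' : m = k * i := hM
    have : 1 * i ≤ k * i := Nat.mul_le_mul_right _ hk
    omega
  case psp m q =>
    obtain ⟨hm, -, -⟩ := hg
    have hb := bd_psp (ρ := 6) (by omega) h6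
    obtain ⟨k, hk, hfk, hM⟩ := hkp1 hN
    have hM' : 2 * m = k * i := hM
    rcases hi2 with rfl | rfl
    · obtain rfl : k = 1 := by omega
      obtain rfl : m = 4 := by omega
      obtain rfl : q = p ^ f₁ := hfl
      right
      exact ⟨rfl, Or.inl (by rw [hfk, mul_one])⟩
    · exfalso
      obtain rfl : m = 6 := by omega
      have h7 : 6 ^ 2 * 12 ≤ 24 * (2 * 6) := h2
      omega
  case oodd m q =>
    obtain ⟨hm, -, -⟩ := hg
    have hb := bd_psp (ρ := 6) (by omega) h6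
    obtain ⟨k, hk, hfk, hM⟩ := hkp1 hN
    have hM' : 2 * m = k * i := hM
    rcases hi2 with rfl | rfl
    · obtain rfl : k = 1 := by omega
      obtain rfl : m = 4 := by omega
      obtain rfl : q = p ^ f₁ := hfl
      right
      exact ⟨rfl, Or.inr (Or.inl (by rw [hfk, mul_one]))⟩
    · exfalso
      obtain rfl : m = 6 := by omega
      have h7 : 6 ^ 2 * 12 ≤ 24 * (2 * 6) := h2
      omega
  case oplus m q =>
    obtain ⟨hm, -⟩ := hg
    have hb := bd_oplus (ρ := 6) (by omega) h6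
    obtain ⟨k, hk, hfk, hM⟩ := hkp1 hN
    have hM' : 2 * (m - 1) = k * i := hM
    rcases hi2 with rfl | rfl
    · obtain rfl : k = 1 := by omega
      obtain rfl : m = 5 := by omega
      obtain rfl : q = p ^ f₁ := hfl
      right
      exact ⟨rfl, Or.inr (Or.inr (by rw [hfk, mul_one]))⟩
    · omega
  case ominus m q =>
    exfalso
    obtain ⟨hm, -⟩ := hg
    have hb := bd_ominus (ρ := 6) (by omega) h6
    obtain ⟨k, hk, hfk, hM⟩ := hkp (c := 2) hN
    have hM' : 2 * m = 2 * (k * i) := hM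
    have : 1 * i ≤ k * i := Nat.mul_le_mul_right _ hk
    omega
  case psu m q =>
    exfalso
    obtain ⟨hm, -, -⟩ := hg
    obtain ⟨M', hM'⟩ : ∃ k, k = (if m % 2 = 0 then m - 1 else m) := ⟨_, rfl⟩
    have hM1 : (m % 2 = 0 ∧ M' = m - 1) ∨ (m % 2 = 1 ∧ M' = m) := by
      rw [hM']
      split_ifs <;> omega
    have hM : Mg (.psu m q) = 2 * M' := by rw [hM']; rfl
    have hodd : M' % 2 = 1 := by omega
    by_cases hm4 : m = 3 ∨ m = 4
    · obtain ⟨k, hk, hfk, h7⟩ := hkp (c := 2) (hN hm4)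
      rw [hM] at h7
      have h8 : M' = k * i := by omega
      rcases hi2 with rfl | rfl <;> omega
    · obtain ⟨j, hj, hjd⟩ := hY 4 (Or.inl rfl) ⟨by norm_num, Or.inl ⟨by omega, rfl⟩⟩
      rw [hM] at hjd
      obtain ⟨t, ht⟩ := hjd
      simp only [List.mem_cons, List.not_mem_nil, or_false] at hj
      rcases hi2 with rfl | rfl
      · rcases hj with rfl | rfl | rfl | rfl <;> omega
      · have h4 : 2 * ag (.psu m q) ≤ 4 * Mg (.psu m q) := by omega
        have hb := bd_psu (ρ := 4) hm h4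
        have hm9 : m = 9 := by rcases hj with rfl | rfl | rfl | rfl <;> omega
        subst hm9
        have hM9 : M' = 9 := by
          rcases hM1 with ⟨h, -⟩ | ⟨-, h⟩
          · exact absurd h (by norm_num)
          · exact h
        obtain ⟨j', hj', hjd'⟩ := hY 8 (by norm_num) ⟨by norm_num, Or.inl ⟨by norm_num, rfl⟩⟩
        rw [hM] at hjd'
        simp only [List.mem_cons, List.not_mem_nil, or_false] at hj'
        rw [hM9] at hjd'
        clear hj ht hM' hM1 hM hodd hb h4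
        rcases hj' with rfl | rfl | rfl | rfl <;> revert hjd' <;> norm_num
  case te6 q =>
    exfalso
    obtain ⟨j, hj, hjd⟩ := hY 10 (by norm_num) (show 10 ∈ [2, 3, 4, 6, 8, 10, 12, 18] by decide)
    have hjd' : i * 10 ∣ 18 * j := hjd
    simp only [List.mem_cons, List.not_mem_nil, or_false] at hj
    rcases hi2 with rfl | rfl <;> omega
  case g2 q =>
    exfalso
    obtain ⟨k, hk, hfk, hM⟩ := hkp1 hN
    have hM' : 6 = k * i := hM
    have : 1 * i ≤ k * i := Nat.mul_le_mul_right _ hk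
    omega
  case f4 q =>
    obtain ⟨k, hk, hfk, hM⟩ := hkp1 hN
    have hM' : 12 = k * i := hM
    obtain rfl : q = p ^ f₁ := hfl
    left
    have : k = 1 := by rcases hi2 with rfl | rfl <;> omega
    subst this
    rw [hfk, mul_one]
  case e6 q =>
    exfalso
    obtain ⟨k, hk, hfk, hM⟩ := hkp1 hN
    have hM' : 12 = k * i := hM
    have h7 : 36 * i ≤ 24 * 12 := h2
    rcases hi2 with rfl | rfl <;> omega
  case e7 q =>
    exfalso
    have h7 : 63 * i ≤ 24 * 18 := h2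
    omega
  case e8 q =>
    exfalso
    have h7 : 120 * i ≤ 24 * 30 := h2
    omega
  case td4 q =>
    exfalso
    obtain ⟨k, hk, hfk, hM⟩ := hkp (c := 3) hN
    have hM' : 12 = 3 * (k * i) := hM
    have : 1 * i ≤ k * i := Nat.mul_le_mul_right _ hk
    omega
  case sz q =>
    exfalso
    obtain rfl : q = p ^ f₁ := hfl
    obtain ⟨m, hm, hqm⟩ : ∃ m, 1 ≤ m ∧ p ^ f₁ = 2 ^ (2 * m + 1) := hg
    exact not_two_pow hp h5 hf₁ Nat.prime_two (by norm_num) hqm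
  case ree q =>
    exfalso
    obtain rfl : q = p ^ f₁ := hfl
    obtain ⟨m, hm, hqm⟩ : ∃ m, 1 ≤ m ∧ p ^ f₁ = 3 ^ (2 * m + 1) := hg
    exact not_two_pow hp h5 hf₁ Nat.prime_three (by norm_num) hqm
  case tf4 q =>
    exfalso
    obtain rfl : q = p ^ f₁ := hfl
    obtain ⟨m, hm, hqm⟩ : ∃ m, 1 ≤ m ∧ p ^ f₁ = 2 ^ (2 * m + 1) := hg
    exact not_two_pow hp h5 hf₁ Nat.prime_two (by norm_num) hqm
  all_goals exact absurd hch not_false

end Cfsg.Agent.H406.Cov
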