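import Cfsg.Agent.H406.Cov.Reg
import Cfsg.Agent.S1025

/-!
# Subgroups of the unipotent group with large image modulo the commutator subgroup (helper406, for S2499)

* `cmpH` : the homomorphism `U → F ^ r` of the components at the fundamental roots;
* `chk`, `ker_le_of_chk` : its kernel is `[U, U]` if the table of commutator relations is checked (`p ≥ 5`);
* `eq_top_of_cmp` : a subgroup of `U` with full image is `U`;
* `card_eq_of_big` : a group `K` containing a regular unipotent element, with Sylow subgroup `P`: if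
  `q ^ r < p (|N(P) : P| + 1)` then `|P| = |U|`.
-/

set_option autoImplicit false

namespace Cfsg.Agent.H406.Cov

open Cfsg Cfsg.Lie Cfsg.Agent.ChevalleyStructure.Elts Cfsg.Agent.ChevalleyStructure.RootVec
  Cfsg.Agent.ChevalleyStructure.RootVecTab Cfsg.Agent.H610.ChevRegular Cfsg.Agent.H610.OddRegLie

universe u

/-- a proper subgroup of a nilpotent group does not cover the abelianization -/
theorem eq_top_of_sup_commutator {G : Type*} [Group G] [Finite G] [hn : Group.IsNilpotent G] {M : Subgroup G}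
    (h : M ⊔ commutator G = ⊤) : M = ⊤ := by
  rcases eq_top_or_exists_le_coatom M with h1 | ⟨N, hN, hMN⟩
  · exact h1
  · exfalso
    have hnorm : N.Normal := Subgroup.NormalizerCondition.normal_of_coatom N (Group.normalizerCondition_of_isNilpotent (G := G)) hN
    have hnt : Nontrivial (G ⧸ N) := QuotientGroup.nontrivial_iff.2 hN.1
    have hs : Group.IsSolvable (G ⧸ N) := inferInstance
    have h2 := Group.IsSolvable.commutator_lt_top_of_nontrivial (G ⧸ N)
    apply h2.ne
    have h3 : (commutator G).map (QuotientGroup.mk' N) = ⊤ := by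
      have h4 : (M ⊔ commutator G).map (QuotientGroup.mk' N) = ⊤ := by
        rw [h, ← MonoidHom.range_eq_map, MonoidHom.range_eq_top]
        exact QuotientGroup.mk'_surjective N
      rw [Subgroup.map_sup] at h4
      have h5 : M.map (QuotientGroup.mk' N) = ⊥ := by
        rw [Subgroup.map_eq_bot_iff, QuotientGroup.ker_mk']
        exact hMN
      rwa [h5, bot_sup_eq] at h4
    rw [commutator_def, Subgroup.map_commutator, ← MonoidHom.range_eq_map,
      MonoidHom.range_eq_top.2 (QuotientGroup.mk'_surjective N)] at h3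
    exact h3

variable {F : Type u} [Field F] {D : ChevalleyDatum} (hD : InList D)

/-! ### The components -/

/-- the components at the fundamental roots -/
noncomputable def cmpH : ↥(D.posUnipotent F) →* Multiplicative (Fin D.rank → F) where
  toFun u := Multiplicative.ofAdd fun i => Classical.choose (exists_comp hD i.2 u.2)
  map_one' := by
    apply congrArg Multiplicative.ofAdd
    funext i
    exact comp_unique hD i.2 (Classical.choose_spec (exists_comp hD i.2 (one_mem _))) (comp_one hD i)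
  map_mul' u v := by
    apply congrArg Multiplicative.ofAdd
    funext i
    exact comp_unique hD i.2 (Classical.choose_spec (exists_comp hD i.2 (mul_mem u.2 v.2)))
      (comp_mul hD i.2 (Classical.choose_spec (exists_comp hD i.2 u.2)) (Classical.choose_spec (exists_comp hD i.2 v.2)))

theorem cmpH_comp (u : ↥(D.posUnipotent F)) (i : Fin D.rank) : Comp hD i (u : GL D.Idx F) ((cmpH hD u).toAdd i) :=
  Classical.choose_spec (exists_comp hD i.2 u.2)

theorem cmpH_eq {u : ↥(D.posUnipotent F)} {c : Fin D.rank → F} (h : ∀ i : Fin D.rank, Comp hD i (u : GL D.Idx F) (c i)) :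
    cmpH hD u = Multiplicative.ofAdd c := by
  apply congrArg Multiplicative.ofAdd (a₁ := (cmpH hD u).toAdd) (a₂ := c)
  funext i
  exact comp_unique hD i.2 (cmpH_comp hD u i) (h i)

/-! ### The commutator subgroup -/

/-- the check of one relation -/
def chkE (D : ChevalleyDatum) (S : List ℕ) (e : ℕ × ℕ × ℕ) : Bool :=
  decide (D.IsPosRoot e.1) && decide (D.IsPosRoot e.2.1) && decide (D.IsPosRoot e.2.2) && !(Nat.beq e.2.2 e.2.1) &&
    !(Nat.beq e.2.2 (D.neg e.2.1)) &&
  match D.commTerms e.2.1 e.2.2 with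
  | [] => false
  | x :: l => Nat.beq x.1 e.1 && Nat.beq x.2.2.1 1 && Nat.beq x.2.2.2 1 && Nat.ble 1 x.2.1.natAbs &&
      Nat.ble x.2.1.natAbs 3 && l.all fun y => Nat.blt e.1 y.1 && S.contains y.1

/-- the check: every positive root is fundamental or in the table -/
def chk (D : ChevalleyDatum) (L : List (ℕ × ℕ × ℕ)) : Bool :=
  L.all (chkE D (L.map Prod.fst)) && (List.range D.nroots).all fun s =>
    !(decide (D.IsPosRoot s)) || ((L.map Prod.fst).contains s || (List.range D.rank).any fun i => Nat.beq s (D.simple i))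

/-- the classes of the root elements -/
def aa (s : ℕ) (t : F) : Abelianization ↥(D.posUnipotent F) :=
  open Classical in if h : D.IsPosRoot s then Abelianization.of ⟨xG hD s t, xG_mem_posUnipotent hD h t⟩ else 1

theorem aa_of {s : ℕ} (h : D.IsPosRoot s) (t : F) :
    aa hD s t = Abelianization.of ⟨xG hD s t, xG_mem_posUnipotent hD h t⟩ := dif_pos h

theorem aa_add (s : ℕ) (t t' : F) : aa hD s (t + t') = aa hD s t * aa hD s t' := by
  by_cases h : D.IsPosRoot s
  · rw [aa_of hD h, aa_of hD h, aa_of hD h, ← map_mul]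
    congr 1
    exact Subtype.ext (xG_add hD s t t').symm
  · unfold aa
    rw [dif_neg h, dif_neg h, dif_neg h, one_mul]

theorem wordG_mem_pos {w : List (ℕ × F)} (h : ∀ y ∈ w, D.IsPosRoot y.1) : wordG hD w ∈ D.posUnipotent F := by
  induction w with
  | nil => rw [wordG_nil]; exact one_mem _
  | cons a w ih =>
    rw [wordG_cons]
    exact mul_mem (xG_mem_posUnipotent hD (h a (by simp)) _) (ih fun y hy => h y (by simp [hy]))

theorem of_wordG {w : List (ℕ × F)} (h : ∀ y ∈ w, D.IsPosRoot y.1) :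
    Abelianization.of (⟨wordG hD w, wordG_mem_pos hD h⟩ : ↥(D.posUnipotent F)) =
      (w.map fun y => aa hD y.1 y.2).prod := by
  induction w with
  | nil =>
    rw [List.map_nil, List.prod_nil, ← map_one Abelianization.of]
    congr 1
  | cons a w ih =>
    rw [List.map_cons, List.prod_cons, ← ih fun y hy => h y (by simp [hy]), aa_of hD (h a (by simp)), ← map_mul]
    congr 1

section Chk

variable {L : List (ℕ × ℕ × ℕ)} (hL : chk D L = true) (hc : ∀ c : ℤ, 1 ≤ c.natAbs → c.natAbs ≤ 3 → (c : F) ≠ 0)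
include hL hc

theorem aa_eq_one_aux : ∀ n s : ℕ, D.nroots - s ≤ n → s ∈ L.map Prod.fst → ∀ t : F, aa hD s t = 1 := by
  unfold chk at hL
  rw [Bool.and_eq_true] at hL
  have hL1 := List.all_eq_true.1 hL.1
  have hpos : ∀ s ∈ L.map Prod.fst, D.IsPosRoot s := by
    intro s hs
    obtain ⟨e, he, rfl⟩ := List.mem_map.1 hs
    have h1 := hL1 e he
    unfold chkE at h1
    simp only [Bool.and_eq_true, decide_eq_true_eq] at h1
    exact h1.1.1.1.1.1
  intro n
  induction n with
  | zero =>
    intro s hs hsL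
    have := (hpos s hsL).1
    omega
  | succ n ih =>
    intro s hs hsL t
    obtain ⟨e, he, rfl⟩ := List.mem_map.1 hsL
    have h1 := hL1 e he
    unfold chkE at h1
    rw [Bool.and_eq_true, Bool.and_eq_true, Bool.and_eq_true, Bool.and_eq_true, Bool.and_eq_true, decide_eq_true_eq,
      decide_eq_true_eq, decide_eq_true_eq] at h1
    obtain ⟨⟨⟨⟨⟨hp1, hp2⟩, hp3⟩, hne⟩, hneg⟩, hm⟩ := h1
    have hne' : e.2.2 ≠ e.2.1 := by
      intro h
      rw [h] at hne
      simp at hne
    have hneg' : e.2.2 ≠ D.neg e.2.1 := by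
      intro h
      rw [h] at hneg
      simp at hneg
    cases hterm : D.commTerms e.2.1 e.2.2 with
    | nil => rw [hterm] at hm; exact absurd hm (by simp)
    | cons x l =>
      rw [hterm] at hm
      simp only [Bool.and_eq_true, Nat.ble_eq, List.all_eq_true, Nat.blt_eq] at hm
      obtain ⟨⟨⟨⟨⟨hx1', hx2'⟩, hx3'⟩, hx4⟩, hx5⟩, hl⟩ := hm
      have hx1 := Nat.eq_of_beq_eq_true hx1'
      have hx2 := Nat.eq_of_beq_eq_true hx2'
      have hx3 := Nat.eq_of_beq_eq_true hx3'
      have hcx := hc _ hx4 hx5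
      -- the relation
      have key := Cfsg.Agent.S1025.result (F := F) D hD e.2.1 e.2.2 hp2.1 hp3.1 hne' hneg' (-(t / x.2.1)) 1
      have hword : D.commWord F e.2.1 e.2.2 (-(t / x.2.1)) 1 = (e.1, t) :: l.map fun c =>
          (c.1, (c.2.1 : F) * (-(-(t / x.2.1))) ^ c.2.2.1 * 1 ^ c.2.2.2) := by
        unfold ChevalleyDatum.commWord
        have e0 : (x.2.1 : F) * (- -(t / x.2.1)) * 1 = t := by
          rw [_root_.neg_neg, mul_one, mul_div_cancel₀ _ hcx]
        rw [hterm, List.map_cons, hx1, hx2, hx3, pow_one, pow_one, e0]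
      rw [hword] at key
      set w : List (ℕ × F) := l.map fun c => (c.1, (c.2.1 : F) * (-(-(t / x.2.1))) ^ c.2.2.1 * 1 ^ c.2.2.2) with hw
      have hwm : ∀ y ∈ w, y.1 ∈ L.map Prod.fst ∧ e.1 < y.1 := by
        intro y hy
        rw [hw, List.mem_map] at hy
        obtain ⟨c, hc', rfl⟩ := hy
        have h2 := hl c hc'
        exact ⟨by simpa using h2.2, h2.1⟩
      have hwp : ∀ y ∈ ((e.1, t) :: w), D.IsPosRoot y.1 := by
        intro y hy
        rcases List.mem_cons.1 hy with rfl | hy
        · exact hp1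
        · exact hpos _ (hwm y hy).1
      have key2 : xG hD e.2.2 (1 : F) * xG hD e.2.1 (-(t / x.2.1)) =
          xG hD e.2.1 (-(t / x.2.1)) * xG hD e.2.2 1 * wordG hD ((e.1, t) :: w) := by
        apply Units.ext
        rw [Units.val_mul, Units.val_mul, Units.val_mul, coe_xG, coe_xG, coe_wordG]
        exact key
      have key3 := congrArg Abelianization.of (show (⟨xG hD e.2.2 (1 : F), xG_mem_posUnipotent hD hp3 _⟩ *
          ⟨xG hD e.2.1 (-(t / x.2.1)), xG_mem_posUnipotent hD hp2 _⟩ : ↥(D.posUnipotent F)) =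
          ⟨xG hD e.2.1 (-(t / x.2.1)), xG_mem_posUnipotent hD hp2 _⟩ * ⟨xG hD e.2.2 1, xG_mem_posUnipotent hD hp3 _⟩ *
            ⟨wordG hD ((e.1, t) :: w), wordG_mem_pos hD hwp⟩ from Subtype.ext key2)
      rw [map_mul, map_mul, map_mul, of_wordG hD hwp, List.map_cons, List.prod_cons] at key3
      have hw1 : (w.map fun y => aa hD y.1 y.2).prod = 1 := by
        apply List.prod_eq_one
        intro a ha
        obtain ⟨y, hy, rfl⟩ := List.mem_map.1 ha
        have h3 := hwm y hy
        have h4 := (hpos _ h3.1).1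
        exact ih y.1 (by omega) h3.1 _
      rw [hw1, mul_one, mul_comm (Abelianization.of _) (Abelianization.of _)] at key3
      exact (left_eq_mul.1 key3)

theorem aa_eq_one {s : ℕ} (hs : s ∈ L.map Prod.fst) (t : F) : aa hD s t = 1 :=
  aa_eq_one_aux hD hL hc _ s le_rfl hs t

/-- the section of the components -/
noncomputable def thH (F : Type u) [Field F] (hD : InList D) :
    Multiplicative (Fin D.rank → F) →* Abelianization ↥(D.posUnipotent F) where
  toFun c := ∏ i : Fin D.rank, aa hD (D.simple i) (c.toAdd i)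
  map_one' := by
    refine Finset.prod_eq_one fun i _ => ?_
    have h := aa_add hD (D.simple i) (0 : F) 0
    rw [add_zero] at h
    exact left_eq_mul.1 h
  map_mul' a b := by
    rw [← Finset.prod_mul_distrib]
    exact Finset.prod_congr rfl fun i _ => aa_add hD _ _ _

theorem of_eq (u : ↥(D.posUnipotent F)) : Abelianization.of u = thH F hD (cmpH hD u) := by
  have key : D.posUnipotent F ≤ ((MonoidHom.eqLocus (Abelianization.of (G := ↥(D.posUnipotent F)))
      ((thH F hD).comp (cmpH hD))).map (D.posUnipotent F).subtype) := by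
    rw [posUnipotent_le_iff hD]
    intro s hs t
    refine ⟨⟨xG hD s t, xG_mem_posUnipotent hD hs t⟩, ?_, rfl⟩
    show Abelianization.of _ = thH F hD (cmpH hD _)
    by_cases hi : ∃ i : Fin D.rank, s = D.simple i
    · obtain ⟨i, rfl⟩ := hi
      have h1 : cmpH hD ⟨xG hD (D.simple i) t, xG_mem_posUnipotent hD hs t⟩ =
          Multiplicative.ofAdd (fun j => if j = i then t else 0) := by
        refine cmpH_eq hD fun j => ?_
        by_cases hj : j = i
        · subst hj
          rw [if_pos rfl]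
          exact comp_simple hD _ t
        · rw [if_neg hj]
          exact comp_simple_ne hD j.2 i.2 (fun h => hj (Fin.ext h).symm) t
      rw [h1]
      show _ = ∏ j : Fin D.rank, aa hD (D.simple j) (if j = i then t else 0)
      rw [Finset.prod_eq_single i]
      · rw [if_pos rfl, aa_of hD hs]
      · intro j _ hj
        rw [if_neg hj]
        have h := aa_add hD (D.simple j) (0 : F) 0
        rw [add_zero] at h
        exact left_eq_mul.1 h
      · intro h; exact absurd (Finset.mem_univ i) h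
    · push Not at hi
      have hsL : s ∈ L.map Prod.fst := by
        unfold chk at hL
        rw [Bool.and_eq_true] at hL
        have h1 := List.all_eq_true.1 hL.2 s (List.mem_range.2 hs.1)
        rw [Bool.or_eq_true, Bool.or_eq_true] at h1
        rcases h1 with h1 | h1 | h1
        · simp [hs] at h1
        · simpa using h1
        · exfalso
          obtain ⟨i, hi1, hi2⟩ := List.any_eq_true.1 h1
          exact hi ⟨i, List.mem_range.1 hi1⟩ (by simpa using hi2)
      have h1 : cmpH hD ⟨xG hD s t, xG_mem_posUnipotent hD hs t⟩ = Multiplicative.ofAdd (fun _ => 0) := by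
        refine cmpH_eq hD fun j => ?_
        exact comp_root hD hs (hi j) t
      rw [h1, ← aa_of hD hs, aa_eq_one hD hL hc hsL]
      exact (map_one (thH F hD)).symm
  obtain ⟨v, hv, hvu⟩ := key u.2
  have : v = u := Subtype.ext hvu
  rw [← this]
  exact hv

/-- **A subgroup of `U` with full image.** -/
theorem eq_top_of_cmp [Finite F] {p : ℕ} [Fact p.Prime] [CharP F p] {M : Subgroup ↥(D.posUnipotent F)}
    (hM : M.map (cmpH hD) = ⊤) : M = ⊤ := by
  have : Fintype F := Fintype.ofFinite F
  obtain ⟨P, hP⟩ := Cfsg.Agent.S2326.result (F := F) p D hD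
  have hUp : IsPGroup p ↥(D.posUnipotent F) := by
    have h1 : IsPGroup p ↥((D.posUnipotent F).subgroupOf (D.group F)) := by rw [← hP]; exact P.isPGroup'
    exact h1.of_equiv (Subgroup.subgroupOfEquivOfLe (posUnipotent_le_group hD F))
  have : Group.IsNilpotent ↥(D.posUnipotent F) := hUp.isNilpotent
  apply eq_top_of_sup_commutator
  rw [eq_top_iff]
  intro u _
  have h1 : cmpH hD u ∈ M.map (cmpH hD) := by rw [hM]; trivial
  obtain ⟨m, hm, hmu⟩ := h1
  have h2 : m⁻¹ * u ∈ commutator ↥(D.posUnipotent F) := by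
    rw [← Abelianization.ker_of, MonoidHom.mem_ker, of_eq hD hL hc, map_mul, map_inv, hmu, inv_mul_cancel, map_one]
  have h3 : u = m * (m⁻¹ * u) := by group
  rw [h3]
  exact mul_mem (Subgroup.mem_sup_left hm) (Subgroup.mem_sup_right h2)

end Chk

/-! ### Counting -/

/-- the action of an element of the Borel subgroup on the components -/
theorem exists_char {b : GL D.Idx F} (hb : b ∈ D.borelSubgroup F) : ∃ χ : ℕ → F,
    (∀ i < D.rank, ∀ x t, Comp hD i x t → Comp hD i (b * x * b⁻¹) (χ i * t)) ∧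
      ((∀ i < D.rank, χ i = 1) → b ∈ D.posUnipotent F) := by
  obtain ⟨u, hu, h, hh, rfl⟩ := exists_of_mem_borel hD hb
  obtain ⟨χ, hχ⟩ := exists_chi hD hh
  refine ⟨fun i => χ (D.simple i), fun i hi x t hx => ?_, fun h1 => ?_⟩
  · obtain ⟨s, hs⟩ := exists_comp hD hi hu
    have h1 : u * h * x * (u * h)⁻¹ = u * (h * x * h⁻¹) * u⁻¹ := by group
    rw [h1]
    have h3 := comp_mul hD hi (comp_mul hD hi hs (hχ.comp hi hx)) (comp_inv hD hi hs)
    have h4 : s + χ (D.simple i) * t + -s = χ (D.simple i) * t := by ring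
    rwa [h4] at h3
  · have : h = 1 := hχ.eq_one h1
    rw [this, mul_one]
    exact hu

section Count

variable [Fintype F] {p : ℕ} [hp : Fact p.Prime] [CharP F p] {K : Type*} [Group K] [Finite K]
  {ψ : K →* ↥(D.group F)} (hψ : Function.Injective ψ) {P : Sylow p K} {w : K} (hwP : w ∈ P)
  (hPU : ∀ x ∈ P, (ψ x : GL D.Idx F) ∈ D.posUnipotent F)
  (hNB : ∀ t ∈ Subgroup.normalizer (P : Set K), (ψ t : GL D.Idx F) ∈ D.borelSubgroup F)
  (hw : Reg hD (ψ w : GL D.Idx F))

/-- the Sylow subgroup in `U` -/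
def toU (hPU : ∀ x ∈ P, (ψ x : GL D.Idx F) ∈ D.posUnipotent F) : ↥P →* ↥(D.posUnipotent F) where
  toFun x := ⟨ψ x.1, hPU x.1 x.2⟩
  map_one' := Subtype.ext (by simp)
  map_mul' x y := Subtype.ext (by simp)

include hψ hPU hNB hw hwP in
/-- the image of `P` in `F ^ r` has more than `|N(P) : P|` elements -/
theorem card_image_gt : ((P : Subgroup K).subgroupOf (Subgroup.normalizer (P : Set K))).index + 1 ≤
    Nat.card ((toU hPU).range.map (cmpH hD)) := by
  classical
  set N := Subgroup.normalizer (P : Set K) with hN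
  set W := (toU hPU).range.map (cmpH hD) with hW
  have hconj : ∀ t : N, (t : K) * w * (t : K)⁻¹ ∈ P := fun t => (Subgroup.mem_normalizer_iff.1 t.2 w).1 hwP
  let g : N → W := fun t => ⟨cmpH hD (toU hPU ⟨_, hconj t⟩), ⟨_, ⟨_, rfl⟩, rfl⟩⟩
  have hpmem : ∀ s : K, s ∈ N → (ψ s : GL D.Idx F) ∈ D.posUnipotent F → s ∈ P := by
    intro s hs hsU
    refine mem_sylow_of_norm P ?_ hs
    have h1 : IsPGroup p ↥((D.posUnipotent F).subgroupOf (D.group F)) := by
      obtain ⟨P', hP'⟩ := Cfsg.Agent.S2326.result (F := F) p D hD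
      rw [← hP']
      exact P'.isPGroup'
    exact isPGroup_zpowers_of_inj hψ h1 (Subgroup.mem_subgroupOf.2 hsU)
  choose a ha0 ha using hw.2
  have hg : ∀ t t' : N, g t = g t' → (t : K)⁻¹ * t' ∈ P := by
    intro t t' h
    have hs : (t : K)⁻¹ * t' ∈ N := mul_mem (inv_mem t.2) t'.2
    apply hpmem _ hs
    obtain ⟨χ, hχ, hχ1⟩ := exists_char hD (hNB _ hs)
    obtain ⟨χ', hχ', -⟩ := exists_char hD (hNB _ t.2)
    apply hχ1
    intro i hi
    have h1 := hχ' i hi _ _ (ha i hi)
    have h2 := hχ' i hi _ _ (hχ i hi _ _ (ha i hi))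
    have e1 : (ψ (t : K) : GL D.Idx F) * (ψ w : GL D.Idx F) * (ψ (t : K) : GL D.Idx F)⁻¹ =
        (toU hPU ⟨_, hconj t⟩ : GL D.Idx F) := by
      show _ = ((ψ ((t : K) * w * (t : K)⁻¹) : ↥(D.group F)) : GL D.Idx F)
      simp
    have e2 : (ψ (t : K) : GL D.Idx F) * ((ψ ((t : K)⁻¹ * t') : GL D.Idx F) * (ψ w : GL D.Idx F) *
        (ψ ((t : K)⁻¹ * t') : GL D.Idx F)⁻¹) * (ψ (t : K) : GL D.Idx F)⁻¹ =
        (toU hPU ⟨_, hconj t'⟩ : GL D.Idx F) := by
      show _ = ((ψ ((t' : K) * w * (t' : K)⁻¹) : ↥(D.group F)) : GL D.Idx F)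
      simp only [map_mul, map_inv, Subgroup.coe_mul, Subgroup.coe_inv]
      group
    rw [e1] at h1
    rw [e2] at h2
    have h3 : (cmpH hD (toU hPU ⟨_, hconj t⟩)).toAdd ⟨i, hi⟩ = (cmpH hD (toU hPU ⟨_, hconj t'⟩)).toAdd ⟨i, hi⟩ :=
      congrArg (fun z : W => (Multiplicative.toAdd (z : Multiplicative (Fin D.rank → F))) ⟨i, hi⟩) h
    have h4 := comp_unique hD hi h1 (cmpH_comp hD (toU hPU ⟨_, hconj t⟩) ⟨i, hi⟩)
    have h5 := comp_unique hD hi h2 (cmpH_comp hD (toU hPU ⟨_, hconj t'⟩) ⟨i, hi⟩)
    rw [← h3, ← h4] at h5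
    have h6 : χ' i * a i hi ≠ 0 := by
      intro h0
      rw [h0] at h1
      have hreg : Reg hD ((ψ (t : K) : GL D.Idx F) * (ψ w : GL D.Idx F) * (ψ (t : K) : GL D.Idx F)⁻¹) :=
        hw.conj (hNB _ t.2)
      obtain ⟨c, hc0, hc⟩ := hreg.2 i hi
      rw [e1] at hc
      exact hc0 (comp_unique hD hi hc h1)
    have h7 : (χ i - 1) * (χ' i * a i hi) = 0 := by linear_combination h5
    exact sub_eq_zero.1 ((mul_eq_zero.1 h7).resolve_right h6)
  have hg1 : ∀ t : N, g t ≠ 1 := by
    intro t h
    have hreg : Reg hD ((ψ (t : K) : GL D.Idx F) * (ψ w : GL D.Idx F) * (ψ (t : K) : GL D.Idx F)⁻¹) :=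
      hw.conj (hNB _ t.2)
    by_cases hr : 0 < D.rank
    · obtain ⟨c, hc0, hc⟩ := hreg.2 0 hr
      have e1 : (ψ (t : K) : GL D.Idx F) * (ψ w : GL D.Idx F) * (ψ (t : K) : GL D.Idx F)⁻¹ =
          (toU hPU ⟨_, hconj t⟩ : GL D.Idx F) := by
        show _ = ((ψ ((t : K) * w * (t : K)⁻¹) : ↥(D.group F)) : GL D.Idx F)
        simp
      rw [e1] at hc
      have h4 := comp_unique hD hr hc (cmpH_comp hD (toU hPU ⟨_, hconj t⟩) ⟨0, hr⟩)
      have h5 : (cmpH hD (toU hPU ⟨_, hconj t⟩)).toAdd ⟨0, hr⟩ = 0 :=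
        congrArg (fun z : W => (Multiplicative.toAdd (z : Multiplicative (Fin D.rank → F))) ⟨0, hr⟩) h
      rw [h5] at h4
      exact hc0 h4
    · exfalso
      have : ∀ D ∈ [chevG2, chevB2, chevD4, chevF4, chevE6, chevE7, chevE8], 0 < D.rank := by decide
      exact hr (this D hD)
  -- the injection
  let PN := (P : Subgroup K).subgroupOf N
  let f : (N ⧸ PN) → W := fun x => g (Quotient.out x)
  have hf : Function.Injective f := by
    intro x y h
    have h1 : ((Quotient.out x : N) : K)⁻¹ * (Quotient.out y : N) ∈ P := hg _ _ h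
    have h2 : (QuotientGroup.mk (Quotient.out x) : N ⧸ PN) = QuotientGroup.mk (Quotient.out y) := by
      rw [QuotientGroup.eq]
      exact Subgroup.mem_subgroupOf.2 h1
    have h3 : ∀ z : N ⧸ PN, (QuotientGroup.mk (Quotient.out z) : N ⧸ PN) = z := fun z => QuotientGroup.out_eq' z
    rwa [h3, h3] at h2
  have hWfin : Finite W := by
    have : Finite (Multiplicative (Fin D.rank → F)) := inferInstanceAs (Finite (Fin D.rank → F))
    infer_instance
  let f' : Option (N ⧸ PN) → W := fun o => o.elim 1 f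
  have hf' : Function.Injective f' := by
    rintro (_ | x) (_ | y) h
    · rfl
    · exact absurd h.symm (hg1 _)
    · exact absurd h (hg1 _)
    · exact congrArg some (hf h)
  have h1 := Nat.card_le_card_of_injective f' hf'
  have h2 : Nat.card (Option (N ⧸ PN)) = PN.index + 1 := by
    rw [Finite.card_option]; rfl
  rwa [h2] at h1

include hψ hPU hNB hw hwP in
/-- **Large normalizers.** -/
theorem card_eq_of_big {L : List (ℕ × ℕ × ℕ)} (hL : chk D L = true) (h5 : 5 ≤ p)
    (hbig : Fintype.card F ^ D.rank < p * (((P : Subgroup K).subgroupOf (Subgroup.normalizer (P : Set K))).index + 1)) :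
    Nat.card P = Nat.card (D.posUnipotent F) := by
  have hc : ∀ c : ℤ, 1 ≤ c.natAbs → c.natAbs ≤ 3 → (c : F) ≠ 0 := by
    intro c h1 h3 h0
    rw [CharP.intCast_eq_zero_iff F p] at h0
    have h6 : p ∣ c.natAbs := Int.natCast_dvd.1 h0
    have := Nat.le_of_dvd h1 h6
    omega
  set W := (toU hPU).range.map (cmpH hD) with hW
  have hgt := card_image_gt hD hψ hwP hPU hNB hw
  have hfin : Finite (Multiplicative (Fin D.rank → F)) := inferInstanceAs (Finite (Fin D.rank → F))
  have hcard : Nat.card (Multiplicative (Fin D.rank → F)) = Fintype.card F ^ D.rank := by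
    rw [Nat.card_congr Multiplicative.toAdd, Nat.card_fun, Nat.card_fin, Nat.card_eq_fintype_card]
  have hWtop : W = ⊤ := by
    by_contra hne
    have h1 : W.index ≠ 1 := fun h => hne (Subgroup.index_eq_one.1 h)
    have h2 : Nat.card W * W.index = Fintype.card F ^ D.rank := by rw [Subgroup.card_mul_index, hcard]
    obtain ⟨n, -, hn⟩ := FiniteField.card F p
    have h3 : W.index ∣ p ^ (n * D.rank) := by
      rw [pow_mul, ← hn, ← h2]
      exact Dvd.intro_left _ rfl
    obtain ⟨k, -, hk⟩ := (Nat.dvd_prime_pow hp.out).1 h3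
    have hk1 : 1 ≤ k := by
      rcases Nat.eq_zero_or_pos k with rfl | h
      · rw [pow_zero] at hk; exact absurd hk h1
      · exact h
    have h4 : p ≤ W.index := by
      rw [hk]
      calc p = p ^ 1 := (pow_one p).symm
        _ ≤ p ^ k := Nat.pow_le_pow_right hp.out.pos hk1
    have h6 : p * (((P : Subgroup K).subgroupOf (Subgroup.normalizer (P : Set K))).index + 1) ≤
        Nat.card W * W.index := by
      rw [mul_comm]
      exact Nat.mul_le_mul hgt h4
    omega
  have h1 := eq_top_of_cmp hD hL hc (p := p) hWtop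
  have h2 : Function.Surjective (toU hPU) := MonoidHom.range_eq_top.1 h1
  have h3 : Function.Injective (toU hPU) := by
    intro x y h
    have h4 : ((ψ x.1 : ↥(D.group F)) : GL D.Idx F) = (ψ y.1 : ↥(D.group F)) :=
      congrArg (fun z : ↥(D.posUnipotent F) => (z : GL D.Idx F)) h
    exact Subtype.ext (hψ (Subtype.ext h4))
  exact Nat.card_congr (Equiv.ofBijective _ ⟨h3, h2⟩)

end Count

/-- the table of `F₄` -/
def tabF4 : List (ℕ × ℕ × ℕ) := [(26, 24, 25), (28, 25, 27), (29, 24, 28), (30, 27, 28), (31, 24, 30), (32, 25, 31),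
  (34, 27, 33), (35, 28, 33), (36, 29, 33), (37, 27, 35), (38, 27, 36), (39, 28, 36), (40, 27, 39), (41, 33, 37),
  (42, 24, 41), (43, 25, 42), (44, 33, 40), (45, 27, 44), (46, 25, 45), (47, 26, 45)]

theorem chk_F4 : chk chevF4 tabF4 = true := by decide +kernel

end Cfsg.Agent.H406.Cov
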