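import Cfsg.Agent.H325.Cov.Act
import Cfsg.Agent.H563.KG.Ncl
import Cfsg.Agent.H56.Exc.Full

/-!
# Reducedness of a group containing one full cyclic torus and a regular unipotent element (helper406)

`red_one`: a linear group of degree `n < ncl e q` containing an element of order `Φ_e(q)`, `e = 8, 12`, whose classes are
big, without normal `p`-subgroups, has no nontrivial normal subgroup of order prime to the class `e`, if some element
commutes with no involution.
-/

set_option autoImplicit false

namespace Cfsg.Agent.H406.Cov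

open Cfsg.Agent.H56.Exc Cfsg.Agent.H325.Loc Cfsg.Agent.H563.KG
open Cfsg.Agent.H436 (Prim)

universe u

/-- a number with all prime divisors of class `e` -/
theorem exists_prim_ncl {q e : ℕ} (he : Cls e) (hq : 2 ≤ q) : ∃ r, Prim q e r ∧ r ∣ ncl e q := by
  obtain ⟨r, hr⟩ := Cfsg.Agent.H436.exists_prim hq (show 3 ≤ e by have := he.ge; omega) (by have := he.ge; omega)
  exact ⟨r, hr, dvd_ncl he (by omega) hr⟩

/-- the power of a torus generator of order `ncl e q` -/
theorem exists_ncl_pow {G : Type*} [Group G] {q e : ℕ} {x : G} (hq : 1 ≤ q) (hx : orderOf x = Ph e q) :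
    orderOf (x ^ Nat.gcd (cc e) (Ph e q)) = ncl e q := by
  have h0 := Ph_pos e hq
  rw [orderOf_pow_of_dvd (Nat.gcd_pos_of_pos_right _ h0).ne' (by rw [hx]; exact Nat.gcd_dvd_right _ _), hx]
  rfl

theorem red_one (hE : CycFixSolv.{u}) {F : Type*} [Field F] {ι : Type*} [Fintype ι] [DecidableEq ι] {G : Type u}
    [Group G] [Finite G] {p : ℕ} [hp : Fact p.Prime] [CharP F p] {τ : G →* GL ι F} (hτ : Function.Injective τ)
    {q e : ℕ} (he : Cls e) (hq : 2 ≤ q) (hcc : ∀ t : ℕ, t.Prime → t ∣ cc e → t = 2)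
    (hcore : ∀ A : Subgroup G, A.Normal → IsPGroup p A → A = ⊥)
    (hbig : ∀ r, Prim q e r → Big G r (Ph e q) e) {x : G} (hx : orderOf x = Ph e q)
    (hn : Fintype.card ι < ncl e q) {u : G} (hu : ∀ a : G, a ^ 2 = 1 → u * a = a * u → a = 1) :
    Red G (Prim q e) := by
  intro N hN hNr
  by_contra hne
  have hq1 : 1 ≤ q := by omega
  obtain ⟨r, hr, hrn⟩ := exists_prim_ncl he hq
  have hrp := hr.prime
  have := Fact.mk hrp
  have hcyc : ∀ s, Prim q e s → ∀ z : G, orderOf z = s → ∀ a b : G, z * a = a * z → z * b = b * z → a * b = b * a := by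
    intro s hs z hz a b ha hb
    have h1 := (hbig s hs).cyc z hz
    let _ := IsCyclic.commGroup (α := ↥(Subgroup.centralizer ({z} : Set G)))
    have h2 : (⟨a, Subgroup.mem_centralizer_singleton_iff.2 ha.symm⟩ : ↥(Subgroup.centralizer ({z} : Set G))) *
        ⟨b, Subgroup.mem_centralizer_singleton_iff.2 hb.symm⟩ = ⟨b, Subgroup.mem_centralizer_singleton_iff.2 hb.symm⟩ *
        ⟨a, Subgroup.mem_centralizer_singleton_iff.2 ha.symm⟩ := mul_comm _ _
    exact congrArg Subtype.val h2
  set y := x ^ Nat.gcd (cc e) (Ph e q) with hy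
  have hyo : orderOf y = ncl e q := exists_ncl_pow hq1 hx
  have hn0 := ncl_pos e hq1
  -- an element of order `r`
  have hz : orderOf (y ^ (ncl e q / r)) = r := by
    rw [orderOf_pow_of_dvd (Nat.div_pos (Nat.le_of_dvd hn0 hrn) hrp.pos).ne' (by rw [hyo]; exact Nat.div_dvd_of_dvd hrn),
      hyo, Nat.div_div_self hrn hn0.ne']
  set z := y ^ (ncl e q / r) with hzd
  -- `N` is solvable
  have hsolv : Group.IsSolvable N := by
    apply hE N (MulAut.conjNormal (H := N) z) r hrp _ (hNr r hr)
    · refine ⟨(Subgroup.centralizer {z}).comap N.subtype, ?_, fun a ha => ?_⟩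
      · have := (hbig r hr).cyc z hz
        let g : ↥((Subgroup.centralizer {z}).comap N.subtype) →* ↥(Subgroup.centralizer {z}) :=
          (N.subtype.comp ((Subgroup.centralizer {z}).comap N.subtype).subtype).codRestrict _ fun y => y.2
        exact isCyclic_of_injective g fun a b hab => by
          have h3 : ((a : N) : G) = ((b : N) : G) :=
            congrArg (fun w : ↥(Subgroup.centralizer {z}) => (w : G)) hab
          exact Subtype.ext (Subtype.ext h3)
      · rw [Subgroup.mem_comap, Subgroup.mem_centralizer_singleton_iff]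
        have h2 := congrArg Subtype.val ha
        rw [MulAut.conjNormal_apply, mul_inv_eq_iff_eq_mul] at h2
        exact h2.symm
    · rw [← map_pow, ← hz, pow_orderOf_eq_one, map_one]
  obtain ⟨t, ht, A, hAn, hAN, hA0, hAc, hAt⟩ := exists_elem' hN hsolv hne
  have hPt : IsPGroup t A := fun a => ⟨1, by rw [pow_one]; exact Subtype.ext (hAt a a.2)⟩
  have := Fact.mk ht
  by_cases htp : t = p
  · subst htp
    exact hA0 (hcore A hAn hPt)
  have hntA : Nontrivial A := (Subgroup.nontrivial_iff_ne_bot A).2 hA0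
  have htA : t ∣ Nat.card A := by
    rcases hPt.card_eq_or_dvd with h | h
    · exact absurd h Finite.one_lt_card.ne'
    · exact h
  have htN : t ∣ Nat.card N := htA.trans (Subgroup.card_dvd_of_le hAN)
  have htp' : ¬ Prim q e t := fun h => hNr t h htN
  have htn : ¬ t ∣ ncl e q := fun h => htp' (prim_of_dvd he hq1 ht h)
  have hcomm := Cfsg.Agent.H325.Cov.cent_all hτ hAn hAc ht htp hAt hyo htn (fun j hj a ha h => by
    have h1 : Prim q e (orderOf (y ^ j)) :=
      prim_of_dvd he hq1 hj ((orderOf_dvd_of_pow_eq_one (by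
        rw [← pow_mul, mul_comm, pow_mul, pow_orderOf_eq_one, one_pow])).trans (by rw [hyo]))
    exact hcyc _ h1 (y ^ j) rfl y a (Commute.pow_left (Commute.refl y) j).eq h) (Or.inl hn)
  -- `A` is cyclic of order 2
  obtain ⟨a, ha⟩ := exists_prime_orderOf_dvd_card' t htA
  have ha1 : orderOf (a : G) = t := by rw [Subgroup.orderOf_coe, ha]
  have hzA : ∀ b ∈ A, z * b = b * z := fun b hb => (Commute.pow_left (show Commute y b from hcomm b hb) _).eq
  have hzc : ∀ b ∈ A, b ∈ Subgroup.centralizer ({z} : Set G) := fun b hb =>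
    Subgroup.mem_centralizer_singleton_iff.2 (hzA b hb).symm
  have hcycz := (hbig r hr).cyc z hz
  have ht2 : t = 2 := by
    apply hcc t ht
    have h1 : t ∣ Ph e q := by
      rw [← ha1, ← Subgroup.orderOf_mk (a : G) (hzc a a.2)]
      exact (orderOf_dvd_natCard _).trans ((hbig r hr).card z hz)
    rw [← ncl_mul e q] at h1
    rcases ht.dvd_mul.1 h1 with h2 | h2
    · exact absurd h2 htn
    · exact h2.trans (Nat.gcd_dvd_left _ _)
  subst ht2
  have huA : (u * (a : G) * u⁻¹) ∈ Subgroup.zpowers (a : G) := by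
    have h1 : u * (a : G) * u⁻¹ ∈ A := hAn.conj_mem a a.2 u
    refine mem_zpowers_of_cyclic hcycz (hzc a a.2) (hzc _ h1) ?_
    rw [ha1]
    exact orderOf_dvd_of_pow_eq_one (hAt _ h1)
  have h2 : u * (a : G) * u⁻¹ = a := by
    obtain ⟨k, hk⟩ := huA
    have hk' : (a : G) ^ k = u * a * u⁻¹ := hk
    rcases Int.even_or_odd' k with ⟨l, rfl | rfl⟩
    · exfalso
      have h3 : (a : G) ^ (2 * l) = 1 := by
        rw [zpow_mul, zpow_ofNat, ← ha1, pow_orderOf_eq_one, one_zpow]
      rw [h3] at hk'
      have h4 : (a : G) = 1 := by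
        have : (a : G) = u⁻¹ * (u * a * u⁻¹) * u := by group
        rw [this, ← hk']
        group
      rw [h4, orderOf_one] at ha1
      omega
    · rw [← hk', zpow_add, zpow_mul, zpow_ofNat, ← ha1, pow_orderOf_eq_one, one_zpow, one_mul, zpow_one]
  have h3 : (a : G) = 1 := hu a (by rw [← ha1]; exact pow_orderOf_eq_one _) (by
    rw [mul_inv_eq_iff_eq_mul] at h2
    exact h2)
  rw [h3, orderOf_one] at ha1
  omega

end Cfsg.Agent.H406.Cov
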