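import Cfsg.Agent.H610.OddRegLie
import Cfsg.Agent.S2326

/-!
# Regular unipotent elements and the normalizers of Sylow subgroups (helper406, for S2499)

* `RegD p U B u n` : `u` lies in a unique conjugate of the Sylow subgroup `U`, `B` normalizes `U`, `b ^ n ∈ U` for `b ∈ B`;
* `RegD.exists_emb` : a group `K` containing a conjugate of `u` may be embedded with a Sylow subgroup in `U`, its
  normalizer in `B`;
* `RegD.pow_mem` : `t ^ n ∈ P` for every Sylow `p`-subgroup `P` of `K` and `t ∈ N(P)`;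
* `regD_chev` : the Chevalley groups, `n = q - 1`.
-/

set_option autoImplicit false

namespace Cfsg.Agent.H406.Cov

open Cfsg Cfsg.Lie

/-- `u` is a regular unipotent element -/
structure RegD (p : ℕ) {G : Type*} [Group G] (U B : Subgroup G) (u : G) (n : ℕ) : Prop where
  pU : IsPGroup p U
  syl : ∀ P : Subgroup G, IsPGroup p P → ∃ g : G, ∀ x ∈ P, g⁻¹ * x * g ∈ U
  mem : u ∈ U
  conj : ∀ g : G, g⁻¹ * u * g ∈ U → g ∈ B
  nrm : ∀ b ∈ B, ∀ x ∈ U, b * x * b⁻¹ ∈ U
  pow : ∀ b ∈ B, b ^ n ∈ U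
  cent : ∀ g : G, g * u = u * g → g ∈ U

section Abs

variable {p : ℕ} {G : Type*} [Group G] {U B : Subgroup G} {u : G} {n : ℕ}

theorem RegD.exists_emb [Fact p.Prime] (R : RegD p U B u n) {K : Type*} [Group K] {φ : K →* G}
    (hφ : Function.Injective φ) {w : K} {g : G} (hw : φ w = g * u * g⁻¹) :
    ∃ (ψ : K →* G) (P : Sylow p K), Function.Injective ψ ∧ ψ w = u ∧ w ∈ P ∧ (∀ x ∈ P, ψ x ∈ U) ∧
      ∀ t ∈ Subgroup.normalizer (P : Set K), ψ t ∈ B := by
  let ψ : K →* G := (MulAut.conj g⁻¹).toMonoidHom.comp φ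
  have hψ : Function.Injective ψ := (MulAut.conj g⁻¹).injective.comp hφ
  have hψw : ψ w = u := by
    show g⁻¹ * φ w * g⁻¹⁻¹ = u
    rw [hw]
    group
  have hwp : IsPGroup p (Subgroup.zpowers w) := by
    have h1 : IsPGroup p (Subgroup.zpowers u) := R.pU.to_le (by rw [Subgroup.zpowers_le]; exact R.mem)
    rw [← hψw, ← MonoidHom.map_zpowers] at h1
    exact h1.of_injective (((Subgroup.zpowers w).equivMapOfInjective ψ hψ).toMonoidHom)
      ((Subgroup.zpowers w).equivMapOfInjective ψ hψ).injective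
  obtain ⟨P, hP⟩ := hwp.exists_le_sylow
  have hwP : w ∈ P := hP (Subgroup.mem_zpowers w)
  obtain ⟨h, hh⟩ := R.syl ((P : Subgroup K).map ψ) (P.isPGroup'.map ψ)
  have hB : h ∈ B := R.conj h (by
    have := hh (ψ w) ⟨w, hwP, rfl⟩
    rwa [hψw] at this)
  have hPU : ∀ x ∈ P, ψ x ∈ U := by
    intro x hx
    have h1 := R.nrm h hB _ (hh (ψ x) ⟨x, hx, rfl⟩)
    have h2 : h * (h⁻¹ * ψ x * h) * h⁻¹ = ψ x := by group
    rwa [h2] at h1
  refine ⟨ψ, P, hψ, hψw, hwP, hPU, fun t ht => R.conj _ ?_⟩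
  have h1 : t⁻¹ * w * t ∈ P := by
    have := (Subgroup.mem_normalizer_iff.1 (inv_mem ht) w).1 hwP
    rwa [inv_inv] at this
  have h2 := hPU _ h1
  rwa [map_mul, map_mul, map_inv, hψw] at h2

/-- a `p`-element normalizing a Sylow `p`-subgroup -/
theorem mem_sylow_of_norm {K : Type*} [Group K] [Fact p.Prime] (P : Sylow p K) [Finite (Sylow p K)] {x : K}
    (hx : IsPGroup p (Subgroup.zpowers x)) (hn : x ∈ Subgroup.normalizer (P : Set K)) : x ∈ P := by
  have h1 := hx.inf_normalizer_sylow P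
  have h2 : x ∈ Subgroup.zpowers x ⊓ Subgroup.normalizer (P : Set K) := ⟨Subgroup.mem_zpowers x, hn⟩
  rw [h1] at h2
  exact h2.2

theorem isPGroup_zpowers_of_inj {K : Type*} [Group K] {ψ : K →* G} (hψ : Function.Injective ψ) (hU : IsPGroup p U)
    {x : K} (hx : ψ x ∈ U) : IsPGroup p (Subgroup.zpowers x) := by
  have h1 : IsPGroup p (Subgroup.zpowers (ψ x)) := hU.to_le (by rw [Subgroup.zpowers_le]; exact hx)
  rw [← MonoidHom.map_zpowers] at h1
  exact h1.of_injective (((Subgroup.zpowers x).equivMapOfInjective ψ hψ).toMonoidHom)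
    ((Subgroup.zpowers x).equivMapOfInjective ψ hψ).injective

/-- **REG.** -/
theorem RegD.pow_mem [Fact p.Prime] (R : RegD p U B u n) {K : Type*} [Group K] [Finite K] {φ : K →* G}
    (hφ : Function.Injective φ) {w : K} {g : G} (hw : φ w = g * u * g⁻¹) (P : Sylow p K) {t : K}
    (ht : t ∈ Subgroup.normalizer (P : Set K)) : t ^ n ∈ P := by
  obtain ⟨ψ, P₀, hψ, -, -, -, hN⟩ := R.exists_emb hφ hw
  obtain ⟨k, hk⟩ := MulAction.exists_smul_eq K P P₀
  have h1 : ∀ x, x ∈ P ↔ k * x * k⁻¹ ∈ P₀ := by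
    intro x
    rw [← hk]
    constructor
    · intro hx
      exact Sylow.smul_def (g := k) (P := P) ▸ ⟨x, hx, rfl⟩
    · intro hx
      have h2 : k * x * k⁻¹ ∈ ((k • P : Sylow p K) : Subgroup K) := hx
      rw [Sylow.coe_subgroup_smul, Subgroup.mem_pointwise_smul_iff_inv_smul_mem] at h2
      have h3 : (MulAut.conj k)⁻¹ • (k * x * k⁻¹) = x := by
        show (MulAut.conj k)⁻¹ (k * x * k⁻¹) = x
        rw [← map_inv, MulAut.conj_apply]
        group
      rwa [h3] at h2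
  have h2 : k * t * k⁻¹ ∈ Subgroup.normalizer (P₀ : Set K) := by
    refine Subgroup.mem_normalizer_iff.2 fun y => ?_
    have h3 : y = k * (k⁻¹ * y * k) * k⁻¹ := by group
    have h4 : k * t * k⁻¹ * y * (k * t * k⁻¹)⁻¹ = k * (t * (k⁻¹ * y * k) * t⁻¹) * k⁻¹ := by group
    have h5 := Subgroup.mem_normalizer_iff.1 ht (k⁻¹ * y * k)
    constructor
    · intro hy
      rw [h4]
      refine (h1 _).1 (h5.1 ((h1 _).2 ?_))
      rw [← h3]
      exact hy
    · intro hy
      rw [h4] at hy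
      have h6 := (h1 _).1 (h5.2 ((h1 _).2 hy))
      rw [← h3] at h6
      exact h6
  have h3 : ψ ((k * t * k⁻¹) ^ n) ∈ U := by
    rw [map_pow]
    exact R.pow _ (hN _ h2)
  have h4 := mem_sylow_of_norm P₀ (isPGroup_zpowers_of_inj hψ R.pU h3) (Subgroup.pow_mem _ h2 n)
  rw [h1]
  rwa [conj_pow] at h4

end Abs

section Chev

open Cfsg.Agent.ChevalleyStructure.Elts Cfsg.Agent.ChevalleyStructure.RootVec
  Cfsg.Agent.ChevalleyStructure.RootVecTab Cfsg.Agent.H610.ChevRegular Cfsg.Agent.H610.OddRegLie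

universe v

variable {F : Type v} [Field F] {D : ChevalleyDatum}

theorem chi_pow {hD : InList D} {h : GL D.Idx F} {χ : ℕ → F} (hh : Chi hD h χ) (n : ℕ) :
    Chi hD (h ^ n) (fun s => χ s ^ n) := by
  induction n with
  | zero => simpa using chi_one (F := F) hD
  | succ n ih =>
    have h1 := chi_mul hD ih hh
    rw [pow_succ]
    simpa [pow_succ] using h1

theorem borel_pow_mem [Fintype F] (hD : InList D) {b : GL D.Idx F} (hb : b ∈ D.borelSubgroup F) :
    b ^ (Fintype.card F - 1) ∈ D.posUnipotent F := by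
  obtain ⟨u, hu, h, hh, rfl⟩ := exists_of_mem_borel hD hb
  have key : ∀ n : ℕ, ∃ v ∈ D.posUnipotent F, (u * h) ^ n = v * h ^ n := by
    intro n
    induction n with
    | zero => exact ⟨1, one_mem _, by simp⟩
    | succ n ih =>
      obtain ⟨v, hv, e⟩ := ih
      refine ⟨v * (h ^ n * u * (h ^ n)⁻¹), mul_mem hv (conj_mem_pos hD
        (Subgroup.mem_sup_right (Subgroup.pow_mem _ hh n)) hu), ?_⟩
      rw [pow_succ, e, pow_succ]
      group
  obtain ⟨v, hv, e⟩ := key (Fintype.card F - 1)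
  obtain ⟨χ, hχ⟩ := exists_chi hD hh
  have h1 : h ^ (Fintype.card F - 1) = 1 := (chi_pow hχ _).eq_one fun i _ =>
    FiniteField.pow_card_sub_one_eq_one _ (hχ.ne _)
  rw [e, h1, mul_one]
  exact hv

/-- **The Chevalley groups have regular unipotent elements.** -/
theorem regD_of_reg [Fintype F] {p : ℕ} [Fact p.Prime] [CharP F p] (hD : InList D) {u : GL D.Idx F} (hu : Reg hD u) :
    RegD p ((D.posUnipotent F).subgroupOf (D.group F)) ((D.borelSubgroup F).subgroupOf (D.group F))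
      ⟨u, posUnipotent_le_group hD F hu.1⟩ (Fintype.card F - 1) := by
  obtain ⟨P, hP⟩ := Cfsg.Agent.S2326.result (F := F) p D hD
  refine ⟨?_, fun Q hQ => ?_, Subgroup.mem_subgroupOf.2 hu.1, fun g hg => ?_, fun b hb x hx => ?_, fun b hb => ?_,
    fun g hg => ?_⟩
  · rw [← hP]
    exact P.isPGroup'
  · obtain ⟨R, hR⟩ := hQ.exists_le_sylow
    obtain ⟨k, hk⟩ := MulAction.exists_smul_eq (D.group F) P R
    refine ⟨k, fun x hx => ?_⟩
    have h1 : x ∈ (R : Subgroup (D.group F)) := hR hx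
    rw [← hk, Sylow.coe_subgroup_smul, Subgroup.mem_pointwise_smul_iff_inv_smul_mem] at h1
    have h3 : (MulAut.conj k)⁻¹ • x = k⁻¹ * x * k := by
      show (MulAut.conj k)⁻¹ x = _
      rw [← map_inv, MulAut.conj_apply, inv_inv]
    rwa [h3, hP] at h1
  · rw [Subgroup.mem_subgroupOf] at hg ⊢
    exact mem_borel_of_conj hD hu g.2 (Subgroup.mem_sup_left hg)
  · rw [Subgroup.mem_subgroupOf] at hb hx ⊢
    exact conj_mem_pos hD hb hx
  · rw [Subgroup.mem_subgroupOf] at hb ⊢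
    exact borel_pow_mem hD hb
  · rw [Subgroup.mem_subgroupOf]
    exact mem_posUnipotent_of_comm hD hu g.2 (congrArg Subtype.val hg)

theorem exists_reg [Fintype F] (hD : InList D) : ∃ u : GL D.Idx F, Reg hD u := by
  obtain ⟨u, hu, h⟩ := exists_sec (F := F) hD fun _ => 1
  exact ⟨u, hu, fun i hi => ⟨1, one_ne_zero, h ⟨i, hi⟩⟩⟩

end Chev

end Cfsg.Agent.H406.Cov
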