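import Cfsg.Agent.H563.KG.Tab

/-!
# Cross characteristic, one class of tori of `F₄(q)`, `p ≥ 5` (helper406, after helper563's `KG.Tab`)

`no_cross5`, `no_spor5` : as `no_cross`, `no_spor` for one class `e₀` and the small fields of order 5, 7.
-/

set_option autoImplicit false
set_option exponentiation.threshold 700

namespace Cfsg.Agent.H406.Cov

open Cfsg.Agent.H902 Cfsg.Agent.H290.ElReg Cfsg.Agent.H290.ElTab Cfsg.Agent.H290.ElCross
open Cfsg.Agent.H436 (Prim)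
open Cfsg.Agent.H563.KG

/-- the small fields -/
def sm5 : List (ℕ × ℕ) := [(5, 5), (7, 7)]

/-- the survivors -/
def svR5 (n : ℕ) (Y : Art.Sh) (cls : List ℕ) : Bool := (reg n).all fun x => sm5.all fun y =>
  y.1 == x.2.1 || !(tq Y cls (OL x.1 (x.2.1 ^ x.2.2)) (Art.dd x.1 (x.2.1 ^ x.2.2)) y.2)

def svS5 (Y : Art.Sh) (cls : List ℕ) : Bool := Cfsg.Agent.OrdDiv.spor.all fun x => sm5.all fun y => !(tq Y cls x.2 1 y.2)

theorem bndR_52_8 : bndR 52 8 = true := by decide +kernel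
theorem bndS_8 : bndS 8 = true := by decide +kernel
theorem svR5_8 : svR5 52 .F4 [8] = true := by decide +kernel
theorem svR5_12 : svR5 52 .F4 [12] = true := by decide +kernel
theorem svS5_8 : svS5 .F4 [8] = true := by decide +kernel
theorem svS5_12 : svS5 .F4 [12] = true := by decide +kernel

theorem mem_sm5 {p f : ℕ} (hp : p.Prime) (hf : 1 ≤ f) (h5 : 5 ≤ p) (h : p ^ f ≤ 7) : (p, p ^ f) ∈ sm5 := by
  have h1 : p ≤ 7 := (Nat.le_self_pow (by omega) p).trans h
  have h3 : f ≤ 1 := by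
    by_contra hcon
    have h5 : 5 ^ 2 ≤ p ^ f := (Nat.pow_le_pow_left h5 2).trans (Nat.pow_le_pow_right hp.pos (by omega))
    omega
  have h4' : p ≠ 6 := by rintro rfl; exact absurd hp (by norm_num)
  have h5 : p = 5 ∨ p = 7 := by omega
  have h6 : f = 1 := by omega
  subst h6
  rcases h5 with rfl | rfl <;> decide

theorem le_seven8 {q : ℕ} (h : ncl 8 q ≤ 2701) : q ≤ 8 := by
  by_contra hq
  have h3 : 9 ^ 4 ≤ q ^ 4 := Nat.pow_le_pow_left (by omega) 4
  have h2 : 2701 < ncl 8 q := ncl_gt (by decide) (by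
    show 2701 * 2 < q ^ 4 + 1
    omega)
  omega

variable {n : ℕ} {Y : Art.Sh} {e₀ p f : ℕ}

/-- the tables needed for one class -/
structure Tb (n : ℕ) (Y : Art.Sh) (e₀ : ℕ) : Prop where
  hn : n ≤ 248
  hb : bndR n e₀ = true
  hs : svR5 n Y [e₀] = true
  hbS : bndS e₀ = true
  hsS : svS5 Y [e₀] = true
  he₀ : Cls e₀
  hle : ∀ q, ncl e₀ q ≤ 2701 → q ≤ 8

theorem tb_12 : Tb 52 .F4 12 where
  hn := by norm_num
  hb := bndR_52_12
  hs := svR5_12
  hbS := bndS_12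
  hsS := svS5_12
  he₀ := by unfold Cls; omega
  hle := fun _ h => (le_seven12 h).trans (by norm_num)

theorem tb_8 : Tb 52 .F4 8 where
  hn := by norm_num
  hb := bndR_52_8
  hs := svR5_8
  hbS := bndS_8
  hsS := svS5_8
  he₀ := by unfold Cls; omega
  hle := fun _ => le_seven8

theorem le_seven_of {p f : ℕ} (hp : p.Prime) (hf : 1 ≤ f) (h5 : 5 ≤ p) (h : p ^ f ≤ 8) : p ^ f ≤ 7 := by
  rcases Nat.lt_or_ge (p ^ f) 8 with h1 | h1
  · omega
  · exfalso
    have h2 : p ^ f = 2 ^ 3 := by omega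
    have h3 : p ∣ 2 ^ 3 := by rw [← h2]; exact dvd_pow_self p (by omega)
    have h4 := (Nat.prime_dvd_prime_iff_eq hp Nat.prime_two).1 (hp.dvd_of_dvd_pow h3)
    omega

/-- **Cross characteristic.** -/
theorem no_cross5 (T : Tb n Y e₀) {X : Art.Sh} {l a N : ℕ}
    (hR : Art.Real X l a N) (hlb : lb X (l ^ a) ≤ n) (hp : p.Prime) (h5 : 5 ≤ p) (hf : 1 ≤ f) (hpl : p ≠ l)
    (hcls : ncl e₀ (p ^ f) ∣ N) (hd : N ∣ OL Y (p ^ f)) : False := by
  obtain ⟨hn, hb, hs, -, -, he₀, hle⟩ := T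
  obtain ⟨hl, ha, hokX, heq⟩ := hR
  have hq : 2 ≤ p ^ f := hp.two_le.trans (Nat.le_self_pow (by omega) p)
  have hreg := mem_reg hn hl ha hokX hlb
  have hs' : smooth (NA X l a) = true :=
    List.all_eq_true.1 smooth_reg (X, (l, a)) (mem_reg le_rfl hl ha hokX (hlb.trans hn))
  have hsS : smooth (NS X l a) = true := by
    have h1 : NS X l a ∣ NA X l a := Dvd.intro_left _ rfl
    have h2 : NA X l a ∣ prs.prod ^ 100 := Nat.dvd_of_mod_eq_zero (by simpa [smooth] using hs')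
    simpa [smooth] using Nat.mod_eq_zero_of_dvd (h1.trans h2)
  have hM : OL X (l ^ a) = Art.dd X (l ^ a) * N := by unfold OL; rw [numL_eq]; exact heq.symm
  have hNM : N ∣ OL X (l ^ a) := Dvd.intro_left _ hM.symm
  have hNS : ∀ r, r.Prime → r ∣ N → r ∣ NS X l a := by
    intro r hr h
    unfold NS
    have h1 : r ∣ (l ^ a) ^ Art.NN X * numL X (l ^ a) := h.trans hNM
    rcases hr.dvd_mul.1 h1 with h2 | h2
    · exact (hr.dvd_of_dvd_pow (hr.dvd_of_dvd_pow h2)).mul_right _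
    · exact h2.mul_left _
  have hb' := List.all_eq_true.1 hb (X, (l, a)) hreg
  simp only [Bool.and_eq_true, Nat.ble_eq, Nat.blt_eq] at hb'
  have hM0 : OL X (l ^ a) ≠ 0 := by
    intro h0
    have h3 : l ^ a ≠ 0 := pow_ne_zero _ hl.ne_zero
    have h4 : NS X l a ≠ 0 := by
      intro h5
      have h6 : NS X l a ∣ prs.prod ^ 100 := Nat.dvd_of_mod_eq_zero (by simpa [smooth] using hsS)
      rw [h5] at h6
      have h7 := Nat.eq_zero_of_zero_dvd h6
      have h8 : prs.prod ≠ 0 := by decide +kernel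
      exact pow_ne_zero 100 h8 h7
    apply h4
    unfold OL at h0
    rcases Nat.mul_eq_zero.1 h0 with h5 | h5
    · exact absurd h5 (pow_ne_zero _ h3)
    · unfold NS
      rw [h5, mul_zero]
  have h1 : ncl e₀ (p ^ f) ∣ De (pd (NS X l a)) (OL X (l ^ a)) e₀ := by
    refine dvd_De hM0 hb'.2 (hcls.trans hNM) fun r hr hrd => ?_
    have hprim := prim_of_dvd he₀ (by omega) hr hrd
    exact ⟨mem_pd hsS hr (hNS r hr (hrd.trans hcls)), mod_of_prim hq (by
      have := he₀.ge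
      omega) hprim⟩
  have h2 : ncl e₀ (p ^ f) ≤ 2701 := by
    have h3 : De (pd (NS X l a)) (OL X (l ^ a)) e₀ ≠ 0 := by
      unfold De
      intro h4
      rw [List.prod_eq_zero_iff, List.mem_map] at h4
      obtain ⟨r, -, h5⟩ := h4
      exact hM0 (Nat.eq_zero_of_gcd_eq_zero_left h5)
    exact (Nat.le_of_dvd (Nat.pos_of_ne_zero h3) h1).trans hb'.1
  have h3 := mem_sm5 hp hf h5 (le_seven_of hp hf h5 (hle _ h2))
  have h4 := List.all_eq_true.1 (List.all_eq_true.1 hs (X, (l, a)) hreg) _ h3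
  rw [tq_of (fun e he => (by rw [List.mem_singleton.1 he]; exact hcls.trans hNM)) hM hd] at h4
  simp at h4
  exact hpl h4

/-- **Sporadic groups.** -/
theorem no_spor5 (T : Tb n Y e₀) {x : Cfsg.Agent.OrdDiv.Grp × ℕ} (hx : x ∈ Cfsg.Agent.OrdDiv.spor)
    (hp : p.Prime) (h5 : 5 ≤ p) (hf : 1 ≤ f)
    (hcls : ncl e₀ (p ^ f) ∣ x.2) (hd : x.2 ∣ OL Y (p ^ f)) : False := by
  obtain ⟨-, -, -, hb, hs, he₀, hle⟩ := T
  have hq : 2 ≤ p ^ f := hp.two_le.trans (Nat.le_self_pow (by omega) p)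
  have hs' : smooth x.2 = true := List.all_eq_true.1 smooth_spor x hx
  have hb' := List.all_eq_true.1 hb x hx
  simp only [Bool.and_eq_true, Nat.ble_eq, Nat.blt_eq] at hb'
  have hM0 : x.2 ≠ 0 := by
    have : ∀ x ∈ Cfsg.Agent.OrdDiv.spor, x.2 ≠ 0 := by decide +kernel
    exact this x hx
  have h1 : ncl e₀ (p ^ f) ∣ De (pd x.2) x.2 e₀ := by
    refine dvd_De hM0 hb'.2 hcls fun r hr hrd => ?_
    have hprim := prim_of_dvd he₀ (by omega) hr hrd
    exact ⟨mem_pd hs' hr (hrd.trans hcls), mod_of_prim hq (by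
      have := he₀.ge
      omega) hprim⟩
  have h2 : ncl e₀ (p ^ f) ≤ 2701 := by
    have h3 : De (pd x.2) x.2 e₀ ≠ 0 := by
      unfold De
      intro h4
      rw [List.prod_eq_zero_iff, List.mem_map] at h4
      obtain ⟨r, -, h5⟩ := h4
      exact hM0 (Nat.eq_zero_of_gcd_eq_zero_left h5)
    exact (Nat.le_of_dvd (Nat.pos_of_ne_zero h3) h1).trans hb'.1
  have h3 := mem_sm5 hp hf h5 (le_seven_of hp hf h5 (hle _ h2))
  have h4 := List.all_eq_true.1 (List.all_eq_true.1 hs x hx) _ h3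
  rw [tq_of (fun e he => (by rw [List.mem_singleton.1 he]; exact hcls)) (one_mul _).symm hd] at h4
  simp at h4

end Cfsg.Agent.H406.Cov
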